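import Cfsg.Agent.BG.L14_13

set_option autoImplicit false

namespace Cfsg.Agent.BG

open Subgroup Cfsg _root_.Cfsg.Agent.H49 Cfsg.Agent.H47

/-- B & G 14.13(b) -/
theorem signalizer_base_conj {G : Type*} [Group G] [Finite G] (hG : IsMinSimpleOddOrder G) {M : Subgroup G} (hM : IsCoatom M) {x y : G} (hx : x ∈ sigmaCore M) (hx1 : x ≠ 1)
    (hxM : ¬ 𝒞[x] ≤ M) (hy : y ∈ sigmaCore M) (hy1 : y ≠ 1) (hyM : ¬ 𝒞[y] ≤ M)
    {N N' : Subgroup G} (hN : IsCoatom N) (hxN : 𝒞[x] ≤ N) (hN' : IsCoatom N')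
    (hyN : 𝒞[y] ≤ N') {g : G} (hg : cj g N' = N) : ∃ m ∈ M, cj m N' = N := by
  obtain ⟨-, h2x, -, h2s, -, hD⟩ := FT_signalizer_context' hG hM hx hx1 hxM hN hxN
  obtain ⟨-, -, -, -, -, hD'⟩ := FT_signalizer_context' hG hM hy hy1 hyM hN' hyN
  have hD2 : IsPiHallOf (sigma N)ᶜ (cj g (M ⊓ N')) N := by
    have h := hD'.cj g
    rwa [← sigma_cj g, hg] at h
  obtain ⟨n, hn, e⟩ := hall_conj (H48.ms_sol hG hN.1) hD2 hD
  obtain ⟨p, hp, hpx⟩ := Nat.exists_prime_and_dvd (mt orderOf_eq_one_iff.1 hx1)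
  have hp2 : p ∈ tau2 N := h2x p hp hpx
  obtain ⟨A, hA⟩ := ex_tau2Elem hG hN hD hp2
  have hCA : 𝒞(A) ≤ M := (tau2_compl_context hG hN hD hp2 hA).2.1.1.trans inf_le_left
  have hAM : A ≤ M := hA.le.trans inf_le_left
  have hA' : cj (n * g)⁻¹ A ≤ M := by
    rw [← le_cj_iff, cj_mul]
    exact hA.le.trans (e.ge.trans (cj_mono n (cj_mono g inf_le_left)))
  obtain ⟨m, hm, c, hc, e'⟩ := (sigma_group_trans hG hM (h2s hp2) hA.pgroup).1 _ hAM hA'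
  refine ⟨n * g, inv_mem_iff.1 (e' ▸ mul_mem hm (hCA hc)), ?_⟩
  rw [cj_mul, hg, cj_eq_of_mem hn]

end Cfsg.Agent.BG
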