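import Cfsg.Agent.H50.Cyc

set_option autoImplicit false

namespace Cfsg.Agent.BG

open Subgroup Cfsg Cfsg.Agent.H49 Cfsg.Agent.H50

theorem l2_7_aux {G : Type*} [Group G] {p q r : ℕ} {a x : G} (hx : orderOf x = p)
    (ha : a ^ q = 1) (h : a * x * a⁻¹ = x ^ r) (hn : a ∉ 𝒞[x]) :
    r ^ q ≡ 1 [MOD p] ∧ ¬ r ≡ 1 [MOD p] := by
  constructor
  · have := conj_pow_pow h q
    rw [ha, one_mul, inv_one, mul_one] at this
    rw [← hx, ← pow_eq_pow_iff_modEq, ← this, pow_one]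
  · intro h1
    rw [← hx, ← pow_eq_pow_iff_modEq, pow_one] at h1
    rw [h1] at h
    exact hn (mem_cent1.2 (mul_inv_eq_iff_eq_mul.1 h))

/-- B & G 2.7 (Coq `regular_abelem2_on_abelem2`). -/
theorem l2_7 {G : Type*} [Group G] [Finite G] {p q : ℕ} (hp : p.Prime) (hq : q.Prime) (hpq : p ≠ q)
    {P Q : Subgroup G} (hP : IsElementaryAbelian p P) (hQ : IsElementaryAbelian q Q)
    (hP2 : Nat.card P = p ^ 2) (hQ2 : Nat.card Q = q ^ 2) (hn : Q ≤ 𝒩(P)) (hc : Q ⊓ 𝒞(P) = ⊥) :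
    q ∣ p - 1 ∧ ∃ a ∈ Q, a ≠ 1 ∧ ∃ r : ℕ, (∀ x ∈ P, a * x * a⁻¹ = x ^ r) ∧
      r ^ q ≡ 1 [MOD p] ∧ ¬ r ≡ 1 [MOD p] := by
  haveI := Fact.mk hp
  have hnc : ¬ IsCyclic Q := by
    haveI := Fact.mk hq
    intro h
    have h4 := card_le_of_elem_of_cyclic h le_rfl hQ.2
    rw [hQ2] at h4
    exact h4.not_gt (by simpa using pow_lt_pow_succ' (p := q) 1)
  have hcop : (Nat.card Q).Coprime (Nat.card P) := by
    rw [hP2, hQ2]; exact Nat.Coprime.pow _ _ ((Nat.coprime_primes hq hp).2 hpq.symm)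
  have hPp := pgroup_of_exp hP.2
  have key : ∀ Y : Subgroup G, ¬ P ≤ Y → ∃ a ∈ Q, ∃ x, orderOf x = p ∧ zpowers x = P ⊓ 𝒞[a] ∧
      x ∉ Y ∧ ¬ P ≤ 𝒞[a] ∧ Q ≤ 𝒩(zpowers x) := by
    intro Y hY
    have := mt (coprime_le_of_cent1 (Y := Y) hQ.1 hnc hn hcop) hY
    push Not at this
    obtain ⟨a, ha, ha1, h⟩ := this
    have h1 : ¬ P ≤ 𝒞[a] := fun h => ha1 (mem_bot.1 (hc ▸ ⟨ha, le_cent1_iff.1 h⟩))
    have h2 := (card_eq_of_lt_p2 hPp (inf_lt_left.2 h1) hP2.le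
      (fun e => h (e ▸ bot_le))).1
    obtain ⟨x, hx, hox⟩ := exists_zpowers_eq_of_card_prime hp h2
    refine ⟨a, ha, x, hox, hx, fun hxY => h (hx ▸ zpowers_le.2 hxY), h1, ?_⟩
    rw [hx, ← cent_zpowers]
    exact norm_inf hn (norm_cent (norm_of_cent (le_cent_of_abelian hQ.1 le_rfl (zpowers_le.2 ha))))
  have hP0 : ¬ P ≤ ⊥ := fun h => by
    rw [le_bot_iff.1 h, card_bot] at hP2
    exact (Nat.one_lt_pow two_ne_zero hp.one_lt).ne hP2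
  obtain ⟨a, ha, x, hox, hx, -, hPa, hxn⟩ := key ⊥ hP0
  obtain ⟨b, hb, y, hoy, hy, hyx, hPb, hyn⟩ := key (zpowers x) fun h => hPa (h.trans (hx ▸ inf_le_right))
  have hxP : x ∈ P ⊓ 𝒞[a] := hx ▸ mem_zpowers x
  have hyP : y ∈ P ⊓ 𝒞[b] := hy ▸ mem_zpowers y
  have hxy : P ≤ zpowers y ⊔ zpowers x :=
    le_zpowers_sup_of_relIndex_prime hp (zpowers_le.2 hxP.1)
      (relIndex_eq_prime_of_card (zpowers_le.2 hxP.1) (k := 1)
        (by rw [Nat.card_zpowers, hox, pow_one]) hP2) hyP.1 hyx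
  obtain ⟨r, hr⟩ := exists_conj_eq_pow (hxn hb)
  obtain ⟨s, hs⟩ := exists_conj_eq_pow (hyn ha)
  obtain ⟨hr1, hr2⟩ := l2_7_aux hox (hQ.2 b hb) hr fun h =>
    hPb (hxy.trans (sup_le (zpowers_le.2 hyP.2) (zpowers_le.2 (mem_cent1_comm.1 h))))
  obtain ⟨hs1, hs2⟩ := l2_7_aux hoy (hQ.2 a ha) hs fun h =>
    hPa (hxy.trans (sup_le (zpowers_le.2 (mem_cent1_comm.1 h)) (zpowers_le.2 hxP.2)))
  haveI := Fact.mk hq
  have hso : orderOf (s : ZMod p) = q := by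
    apply orderOf_eq_prime
    · exact_mod_cast (ZMod.natCast_eq_natCast_iff _ _ _).2 hs1
    · exact fun h => hs2 ((ZMod.natCast_eq_natCast_iff _ _ _).1 (by exact_mod_cast h))
  have hs0 : (s : ZMod p) ≠ 0 := fun h => by
    have := pow_orderOf_eq_one (s : ZMod p)
    rw [hso, h, zero_pow hq.ne_zero] at this
    exact zero_ne_one this
  haveI : NeZero q := ⟨hq.ne_zero⟩
  obtain ⟨k, -, hk⟩ := (hso ▸ IsPrimitiveRoot.orderOf (s : ZMod p)).eq_pow_of_pow_eq_one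
    (ξ := (r : ZMod p)) (by exact_mod_cast (ZMod.natCast_eq_natCast_iff _ _ _).2 hr1)
  have hk' : s ^ k ≡ r [MOD p] := (ZMod.natCast_eq_natCast_iff _ _ _).1 (by exact_mod_cast hk)
  have e1 : a ^ k * b * x * (a ^ k * b)⁻¹ = x ^ r := by
    have h1 : Commute (a ^ k) (x ^ r) := (Commute.pow_pow (mem_cent1.1 hxP.2).symm k r)
    calc a ^ k * b * x * (a ^ k * b)⁻¹ = a ^ k * (b * x * b⁻¹) * (a ^ k)⁻¹ := by group
      _ = x ^ r := by rw [hr, h1.eq, mul_inv_cancel_right]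
  have e2 : a ^ k * b * y * (a ^ k * b)⁻¹ = y ^ r := by
    calc a ^ k * b * y * (a ^ k * b)⁻¹ = a ^ k * (b * y * b⁻¹) * (a ^ k)⁻¹ := by group
      _ = y ^ r := by
        rw [← mem_cent1.1 hyP.2, mul_inv_cancel_right, conj_pow_pow hs, pow_eq_pow_iff_modEq, hoy]
        exact hk'
  refine ⟨hso ▸ ZMod.orderOf_dvd_card_sub_one hs0, a ^ k * b, mul_mem (pow_mem ha k) hb, ?_, r, ?_,
    hr1, hr2⟩
  · intro h
    rw [h, one_mul, inv_one, mul_one] at e1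
    apply hr2
    rw [← hox, ← pow_eq_pow_iff_modEq, ← e1, pow_one]
  · intro z hz
    obtain ⟨u, hu, v, hv, rfl⟩ := (mem_sup_of_norm_right (norm_of_cent (le_cent_of_abelian hP.1
      (zpowers_le.2 hyP.1) (zpowers_le.2 hxP.1)))).1 (hxy hz)
    have hc : Commute u v := mul_comm_of_abelian hP.1 (zpowers_le.2 hyP.1 hu) (zpowers_le.2 hxP.1 hv)
    rw [hc.mul_pow, ← conj_eq_pow_of_mem_zpowers e2 hu, ← conj_eq_pow_of_mem_zpowers e1 hv]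
    group

end Cfsg.Agent.BG
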